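import Cfsg.Agent.Lib.Compute.L34Mult.Defs

/-!
# The kernel checks of the table of `PSL₃(4)`
-/

set_option autoImplicit false

namespace Cfsg.Agent.Lib.Compute.L34Mult

open Cfsg.Agent.Lib.Compute.PermCert Cfsg.Agent.Lib.Compute.PeelCert Cfsg.Agent.Lib.Compute.CoverCert
open Cfsg.Agent.Lib.Compute.SchurLin (flp expV unitV)

theorem tab_ok : allB tabOK 2880 = true := by decide +kernel
theorem var_ok : allB varOK 5760 = true := by decide +kernel
theorem rels_ok : relsOK tG 2 2880 rkG formG WW offC 2 BB 9 (6 + 1) 8 relL = true := by decide +kernel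
theorem hoff_ok : bdB BB 1024 (6 + 1) offC = true := by decide +kernel
theorem hE_ok : EG = BB ^ (6 + 1) := by decide +kernel
theorem len_ok : ∀ w ∈ WW, w.length ≤ 35 := by decide +kernel
theorem lt_ok : ∀ w ∈ WW, ∀ x ∈ w, x < 2 * 2 := by decide +kernel
theorem len_WW : WW.length = 8 := by decide +kernel
theorem z0_ok : allB (zOK 3 0) 2880 = true := by decide +kernel
theorem z1_ok : allB (zOK 4 1) 2880 = true := by decide +kernel
theorem z2_ok : allB (zOK 4 2) 2880 = true := by decide +kernel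
theorem rows2 : allB (rowOK 2) 2880 = true := by decide +kernel
theorem rows3 : allB (rowOK 3) 2880 = true := by decide +kernel
theorem rows4 : allB (rowOK 4) 2880 = true := by decide +kernel
theorem rows5 : allB (rowOK 5) 2880 = true := by decide +kernel
theorem rows6 : allB (rowOK 6) 2880 = true := by decide +kernel
theorem rows7 : allB (rowOK 7) 2880 = true := by decide +kernel
theorem row00 : rowOK 0 0 = true := by decide +kernel
theorem row10 : rowOK 1 0 = true := by decide +kernel
theorem val0 : WV.getD 0 (0, 0, 0) = (0, 0, 0) := by decide +kernel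
theorem val1 : WV.getD 1 (0, 0, 0) = (0, 0, 0) := by decide +kernel
theorem tau0 : cmbOK (relVecs BB (6 + 1) relL) tauP0 tauM0 tauV0 = true := by decide +kernel
theorem tau1 : cmbOK (relVecs BB (6 + 1) relL) tauP1 tauM1 tauV1 = true := by decide +kernel
theorem tau2 : cmbOK (relVecs BB (6 + 1) relL) tauP2 tauM2 tauV2 = true := by decide +kernel
theorem tau3 : cmbOK (relVecs BB (6 + 1) relL) tauP3 tauM3 tauV3 = true := by decide +kernel
theorem tau4 : cmbOK (relVecs BB (6 + 1) relL) tauP4 tauM4 tauV4 = true := by decide +kernel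
theorem tau5 : cmbOK (relVecs BB (6 + 1) relL) tauP5 tauM5 tauV5 = true := by decide +kernel
theorem tau6 : cmbOK (relVecs BB (6 + 1) relL) tauP6 tauM6 tauV6 = true := by decide +kernel
theorem vals_eq : tauV0 = [1, 0, 0, 0, 0, 0, 70] ∧ tauV1 = [0, 1, 0, 0, 0, 12, 770] ∧ tauV2 = [0, 0, 1, 0, 0, 8, 532] ∧
    tauV3 = [0, 0, 0, 1, 0, 8, 532] ∧ tauV4 = [0, 0, 0, 0, 1, 0, 49] ∧ tauV5 = [0, 0, 0, 0, 0, 4, 28] ∧
    tauV6 = [0, 0, 0, 0, 0, 0, 84] := by decide +kernel

end Cfsg.Agent.Lib.Compute.L34Mult
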