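import Cfsg.Agent.Lib.Compute.L34Mult.Data
import Cfsg.Agent.Lib.Compute.CoverCert
import Cfsg.Agent.Lib.Compute.MatCode
import Cfsg.Agent.Lib.Compute.PSL34

/-!
# The table of `PSL₃(4)` on `2880` points and its labels
-/

set_option autoImplicit false

namespace Cfsg.Agent.Lib.Compute.L34Mult

open Matrix
open Cfsg.Agent.Lib.Compute.PermCert Cfsg.Agent.Lib.Compute.PeelCert Cfsg.Agent.Lib.Compute.CoverCert
open Cfsg.Agent.Lib.Compute.MatCode Cfsg.Agent.Lib.Compute.GFModel Cfsg.Agent.Lib.Compute.PSL34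
open Cfsg.Agent.Lib.Compute.SchurLin (flp expV)
open Cfsg.Agent.Lib.Compute.ToddCoxeterCore (frc)

noncomputable section

/-- The table. -/
def tG (i x : Nat) : Nat := get 12 4095 tBig (Nat.add (Nat.mul 4 i) x)
/-- The parents and letters. -/
def plG (i : Nat) : Nat := get 14 16383 plBig i
/-- The parents. -/
def parG (i : Nat) : Nat := Nat.land (plG i) 4095
/-- The letters to the parents. -/
def ltG (i : Nat) : Nat := Nat.shiftRight (plG i) 12
/-- The data of a label. -/
def varE (u : Nat) : Nat := get 28 268435455 varBig u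
/-- The rank of a label. -/
def rkG (u : Nat) : Nat := Nat.land (varE u) 4095
/-- The relator of a label. -/
def kkG (u : Nat) : Nat := Nat.land (Nat.shiftRight (varE u) 12) 15
/-- The point of a label. -/
def ssG (u : Nat) : Nat := Nat.shiftRight (varE u) 16
/-- A mask. -/
def M112 : Nat := Nat.sub (Nat.shiftLeft 1 112) 1
/-- The form of a rank. -/
def formG (r : Nat) : Nat := get 112 M112 formBig r
/-- The label parameters. -/
def pVG (j : Nat) : Nat := pVL.getD j 0
/-- The base. -/
def BB : Nat := 65536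
/-- The error digit. -/
def EG : Nat := Nat.pow BB 7

/-- The check of a label. -/
def varOK (u : Nat) : Bool :=
  Nat.blt (ssG u) 2880 && bdB BB 1024 7 (formG (rkG u)) &&
    chkVar tG 2 parG ltG rkG formG kkG ssG pVG WW offC EG 2 BB 8 6 1 u

/-- The check of the table at a point. -/
def tabOK (i : Nat) : Bool :=
  allB (fun x => Nat.blt (tG i x) 2880 && Nat.beq (tG (tG i x) (flp x)) i) 4 &&
    (Nat.beq i 0 || (Nat.blt (parG i) i && Nat.blt (ltG i) 4 && Nat.beq (tG (parG i) (ltG i)) i))

/-- The component of an edge label. -/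
def zG (k i x : Nat) : Nat := get 2 3 zcBig (Nat.add (Nat.mul 3 (Nat.add (Nat.mul 4 i) x)) k)

/-- The check of the inverse labels. -/
def zOK (m k i : Nat) : Bool :=
  allB (fun x => Nat.beq (Nat.mod (Nat.add (zG k (tG i x) (flp x)) (zG k i x)) m) 0) 4

/-- The check of a word at a point. -/
def rowOK (k i : Nat) : Bool :=
  wfold tG (zG 0) (WW.getD k []) (fun i' s => Nat.beq i' i && Nat.beq (Nat.mod s 3) (WV.getD k (0, 0, 0)).1) i 0 &&
    wfold tG (zG 1) (WW.getD k []) (fun _ s => Nat.beq (Nat.mod s 4) (WV.getD k (0, 0, 0)).2.1) i 0 &&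
    wfold tG (zG 2) (WW.getD k []) (fun _ s => Nat.beq (Nat.mod s 4) (WV.getD k (0, 0, 0)).2.2) i 0

end

end Cfsg.Agent.Lib.Compute.L34Mult
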